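import Mathlib
import Cfsg.Agent.Lib.Helper70.OPar.Defs

/-!
# OPAR (S5989): package [OM1]

An element of `Ω⁺_{2d}(q)` with square `-1` when `d` is even or `q ≡ 1 (mod 8)`.
-/

set_option autoImplicit false
open scoped MatrixGroups
open Matrix

namespace Cfsg.Agent.Lib.Helper38.OPar

open Cfsg.Agent.Lib.Helper70.OPar

universe u

section gen

variable {F : Type u} [Field F]

theorem mem_iso_iff {ι : Type} [Fintype ι] [DecidableEq ι] (Q : (ι → F) → F) (x : GL ι F) :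
    x ∈ Cfsg.isometryGroup F Q ↔ ∀ v, Q ((x : Matrix ι ι F) *ᵥ v) = Q v := by
  constructor
  · intro h v; exact h v v
  · intro h u _; exact h u

theorem comm_mem_omega {ι : Type} [Fintype ι] [DecidableEq ι] (Q : (ι → F) → F) (g h : GL ι F)
    (hg : g ∈ Cfsg.isometryGroup F Q) (hh : h ∈ Cfsg.isometryGroup F Q) :
    g * h * g⁻¹ * h⁻¹ ∈ Cfsg.Geo.omegaGL Q := by
  unfold Cfsg.Geo.omegaGL
  have hmem := Subgroup.commutator_mem_commutator
    (Subgroup.mem_top (⟨g, hg⟩ : Cfsg.isometryGroup F Q))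
    (Subgroup.mem_top (⟨h, hh⟩ : Cfsg.isometryGroup F Q))
  rw [commutatorElement_def] at hmem
  exact ⟨_, hmem, rfl⟩

variable {d : ℕ}

/-- the block matrix `diag(A, A'ᵀ)` -/
def tM (A A' : Matrix (Fin d) (Fin d) F) : Matrix (Fin d ⊕ Fin d) (Fin d ⊕ Fin d) F :=
  fromBlocks A 0 0 A'ᵀ

theorem tM_mul (A A' B B' : Matrix (Fin d) (Fin d) F) :
    tM A A' * tM B B' = tM (A * B) (B' * A') := by
  simp [tM, fromBlocks_multiply, transpose_mul]

theorem tM_one : tM (1 : Matrix (Fin d) (Fin d) F) 1 = 1 := by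
  simp [tM]

/-- `diag(A, A⁻ᵀ)` as an invertible matrix -/
def tGL (A A' : Matrix (Fin d) (Fin d) F) (h : A * A' = 1) : GL (Fin d ⊕ Fin d) F :=
  ⟨tM A A', tM A' A, by rw [tM_mul, h, tM_one],
    by rw [tM_mul, mul_eq_one_comm.1 h, tM_one]⟩

theorem tGL_iso (A A' : Matrix (Fin d) (Fin d) F) (h : A * A' = 1) :
    tGL A A' h ∈ Cfsg.isometryGroup F (Cfsg.quadFormPlus d F) := by
  rw [mem_iso_iff]
  intro v
  have h' : A' * A = 1 := mul_eq_one_comm.1 h
  show Cfsg.quadFormPlus d F (tM A A' *ᵥ v) = Cfsg.quadFormPlus d F v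
  unfold Cfsg.quadFormPlus tM
  rw [fromBlocks_mulVec]
  simp only [Sum.elim_inl, Sum.elim_inr, Matrix.zero_mulVec, add_zero, zero_add]
  have e1 : ∑ i : Fin d, (A *ᵥ (v ∘ Sum.inl)) i * (A'ᵀ *ᵥ (v ∘ Sum.inr)) i
      = (A *ᵥ (v ∘ Sum.inl)) ⬝ᵥ (A'ᵀ *ᵥ (v ∘ Sum.inr)) := rfl
  have e2 : ∑ i : Fin d, v (Sum.inl i) * v (Sum.inr i) = (v ∘ Sum.inl) ⬝ᵥ (v ∘ Sum.inr) := rfl
  rw [e1, e2, Matrix.dotProduct_mulVec, Matrix.vecMul_transpose, Matrix.mulVec_mulVec, h',
    Matrix.one_mulVec]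

/-- the swap of the two halves -/
def sM : Matrix (Fin d ⊕ Fin d) (Fin d ⊕ Fin d) F := fromBlocks 0 1 1 0

theorem sM_mul : (sM : Matrix (Fin d ⊕ Fin d) (Fin d ⊕ Fin d) F) * sM = 1 := by
  simp [sM, fromBlocks_multiply]

/-- the swap as an invertible matrix -/
def sGL : GL (Fin d ⊕ Fin d) F := ⟨sM, sM, sM_mul, sM_mul⟩

theorem sGL_iso : (sGL : GL (Fin d ⊕ Fin d) F) ∈ Cfsg.isometryGroup F (Cfsg.quadFormPlus d F) := by
  rw [mem_iso_iff]
  intro v
  show Cfsg.quadFormPlus d F (sM *ᵥ v) = Cfsg.quadFormPlus d F v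
  unfold Cfsg.quadFormPlus sM
  rw [fromBlocks_mulVec]
  simp only [Sum.elim_inl, Sum.elim_inr, Matrix.zero_mulVec, add_zero, zero_add,
    Matrix.one_mulVec, Function.comp_apply]
  exact Finset.sum_congr rfl (fun i _ => mul_comm _ _)

theorem exists_DP (hd : Even d) : ∃ D P : Matrix (Fin d) (Fin d) F,
    D * D = 1 ∧ P * P = 1 ∧ D * P = -(P * D) := by
  obtain ⟨e, rfl⟩ := hd
  let φ := Matrix.reindexAlgEquiv F F (finSumFinEquiv : Fin e ⊕ Fin e ≃ Fin (e + e))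
  refine ⟨φ (fromBlocks 1 0 0 (-1)), φ (fromBlocks 0 1 1 0), ?_, ?_, ?_⟩
  · rw [← map_mul, ← map_one φ]
    congr 1
    simp [fromBlocks_multiply]
  · rw [← map_mul, ← map_one φ]
    congr 1
    simp [fromBlocks_multiply]
  · rw [← map_mul, ← map_mul, ← map_neg]
    congr 1
    simp [fromBlocks_multiply, fromBlocks_neg]

end gen

section ringid

variable {R : Type*} [Ring R] (D P : R)

theorem rid1 (hD : D * D = 1) (hDP : D * P = -(P * D)) : D * (P - D) * D = -(P + D) := by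
  calc D * (P - D) * D = (D * P) * D - D * (D * D) := by noncomm_ring
    _ = -(P * D) * D - D * 1 := by rw [hDP, hD]
    _ = -(P * (D * D)) - D := by noncomm_ring
    _ = -(P + D) := by rw [hD]; noncomm_ring

theorem rid2 (hD : D * D = 1) (hP : P * P = 1) (hDP : D * P = -(P * D)) :
    (P + D) * (P - D) = -(P * D + P * D) := by
  calc (P + D) * (P - D) = P * P - P * D + D * P - D * D := by noncomm_ring
    _ = 1 - P * D + -(P * D) - 1 := by rw [hP, hDP, hD]
    _ = -(P * D + P * D) := by noncomm_ring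

theorem rid3 (hD : D * D = 1) (hP : P * P = 1) (hDP : D * P = -(P * D)) :
    (P - D) * (P - D) = 1 + 1 := by
  calc (P - D) * (P - D) = P * P - P * D - D * P + D * D := by noncomm_ring
    _ = 1 - P * D - -(P * D) + 1 := by rw [hP, hDP, hD]
    _ = 1 + 1 := by noncomm_ring

theorem rid4 (hD : D * D = 1) (hP : P * P = 1) (hDP : D * P = -(P * D)) :
    (P * D) * (P * D) = -1 := by
  calc (P * D) * (P * D) = P * (D * P) * D := by noncomm_ring
    _ = P * -(P * D) * D := by rw [hDP]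
    _ = -((P * P) * (D * D)) := by noncomm_ring
    _ = -1 := by rw [hP, hD, mul_one]

theorem rid5 (hD : D * D = 1) (hP : P * P = 1) (hDP : D * P = -(P * D)) :
    (P - D) * D * (P - D) * D = -(P * D + P * D) := by
  calc (P - D) * D * (P - D) * D
      = (P * D) * (P * D) - P * (D * D) * D - (D * D) * (P * D) + (D * D) * (D * D) := by
        noncomm_ring
    _ = -1 - P * 1 * D - 1 * (P * D) + 1 * 1 := by rw [rid4 D P hD hP hDP, hD]
    _ = -(P * D + P * D) := by noncomm_ring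

end ringid

/-- [OM1] -/
theorem pkgOm1 : PkgOm1.{u} := by
  intro F _ _ hodd d hcase
  have hchar : ringChar F ≠ 2 := by
    intro h
    have := FiniteField.even_card_iff_char_two.1 h
    rcases hodd with ⟨k, hk⟩
    omega
  have h2 : (2 : F) ≠ 0 := by
    intro h
    apply hchar
    have hdvd : ringChar F ∣ 2 := by
      apply ringChar.dvd
      exact_mod_cast h
    have hp : (ringChar F).Prime := CharP.char_is_prime F (ringChar F)
    exact (Nat.prime_dvd_prime_iff_eq hp Nat.prime_two).1 hdvd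
  rcases hcase with hd | h8
  · obtain ⟨D, P, hD, hP, hDP⟩ := exists_DP (F := F) hd
    have hh : (P - D) * ((2 : F)⁻¹ • (P - D)) = 1 := by
      rw [Matrix.mul_smul, rid3 D P hD hP hDP, ← two_smul F (1 : Matrix (Fin d) (Fin d) F),
        smul_smul, inv_mul_cancel₀ h2, one_smul]
    refine ⟨tGL D D hD * tGL (P - D) ((2 : F)⁻¹ • (P - D)) hh * (tGL D D hD)⁻¹
      * (tGL (P - D) ((2 : F)⁻¹ • (P - D)) hh)⁻¹,
      comm_mem_omega _ _ _ (tGL_iso _ _ _) (tGL_iso _ _ _), ?_⟩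
    have hx : ((tGL D D hD * tGL (P - D) ((2 : F)⁻¹ • (P - D)) hh * (tGL D D hD)⁻¹
        * (tGL (P - D) ((2 : F)⁻¹ • (P - D)) hh)⁻¹ : GL (Fin d ⊕ Fin d) F) :
          Matrix (Fin d ⊕ Fin d) (Fin d ⊕ Fin d) F)
        = tM D D * tM (P - D) ((2 : F)⁻¹ • (P - D)) * tM D D
          * tM ((2 : F)⁻¹ • (P - D)) (P - D) := rfl
    rw [hx, tM_mul, tM_mul, tM_mul]
    have hJ1 : D * (P - D) * D * ((2 : F)⁻¹ • (P - D)) = P * D := by
      rw [Matrix.mul_smul, rid1 D P hD hDP, neg_mul, rid2 D P hD hP hDP, neg_neg,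
        ← two_smul F (P * D), smul_smul, inv_mul_cancel₀ h2, one_smul]
    have hJ2 : (P - D) * (D * ((2 : F)⁻¹ • (P - D) * D)) = -(P * D) := by
      have : (P - D) * (D * ((2 : F)⁻¹ • (P - D) * D))
          = (2 : F)⁻¹ • ((P - D) * D * (P - D) * D) := by
        rw [Matrix.smul_mul, Matrix.mul_smul, Matrix.mul_smul]
        congr 1
        noncomm_ring
      rw [this, rid5 D P hD hP hDP, ← two_smul F (P * D), smul_neg, smul_smul,
        inv_mul_cancel₀ h2, one_smul]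
    rw [hJ1, hJ2, tM_mul, neg_mul_neg, rid4 D P hD hP hDP]
    unfold tM
    rw [transpose_neg, transpose_one, ← fromBlocks_one, fromBlocks_neg, neg_zero]
  · -- q ≡ 1 mod 8
    have hq2 : Fintype.card F / 2 = 4 * (Fintype.card F / 8) := by omega
    have hm1 : (-1 : F) ≠ 0 := neg_ne_zero.2 one_ne_zero
    obtain ⟨i, hi⟩ : IsSquare (-1 : F) := by
      rw [FiniteField.isSquare_iff hchar hm1, hq2, pow_mul]
      norm_num
    have hi0 : i ≠ 0 := by
      rintro rfl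
      rw [mul_zero] at hi
      exact hm1 hi
    obtain ⟨c, hc⟩ : IsSquare i := by
      rw [FiniteField.isSquare_iff hchar hi0, hq2,
        show 4 * (Fintype.card F / 8) = 2 * (2 * (Fintype.card F / 8)) by ring, pow_mul, sq,
        ← hi, pow_mul]
      norm_num
    have hc0 : c ≠ 0 := by
      rintro rfl
      rw [mul_zero] at hc
      exact hi0 hc
    have hc4 : c * c * (c * c) = -1 := by rw [← hc, ← hi]
    have hcc : (c • (1 : Matrix (Fin d) (Fin d) F)) * (c⁻¹ • (1 : Matrix (Fin d) (Fin d) F)) = 1 := by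
      rw [Matrix.smul_mul, Matrix.mul_smul, one_mul, smul_smul, mul_inv_cancel₀ hc0, one_smul]
    refine ⟨sGL * tGL (c • 1) (c⁻¹ • 1) hcc * sGL⁻¹ * (tGL (c • 1) (c⁻¹ • 1) hcc)⁻¹,
      comm_mem_omega _ _ _ sGL_iso (tGL_iso _ _ _), ?_⟩
    have hx : ((sGL * tGL (c • 1) (c⁻¹ • 1) hcc * sGL⁻¹ * (tGL (c • 1) (c⁻¹ • 1) hcc)⁻¹ :
          GL (Fin d ⊕ Fin d) F) : Matrix (Fin d ⊕ Fin d) (Fin d ⊕ Fin d) F)
        = sM * tM (c • 1) (c⁻¹ • 1) * sM * tM (c⁻¹ • 1) (c • 1) := rfl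
    rw [hx]
    have hinv : c⁻¹ * c⁻¹ * (c⁻¹ * c⁻¹) = -1 := by
      have : c⁻¹ * c⁻¹ * (c⁻¹ * c⁻¹) = (c * c * (c * c))⁻¹ := by
        field_simp
      rw [this, hc4]
      norm_num
    have hX : sM * tM (c • 1) (c⁻¹ • 1) * sM * tM (c⁻¹ • 1) (c • 1)
        = fromBlocks ((c⁻¹ * c⁻¹) • (1 : Matrix (Fin d) (Fin d) F)) 0 0 ((c * c) • 1) := by
      simp [sM, tM, fromBlocks_multiply, smul_smul]
    rw [hX, fromBlocks_multiply]
    simp only [Matrix.smul_mul, Matrix.mul_smul, one_mul, smul_smul, mul_zero, zero_mul, add_zero,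
      zero_add, hc4, hinv]
    rw [← fromBlocks_one, fromBlocks_neg, neg_zero, neg_smul, one_smul]

end Cfsg.Agent.Lib.Helper38.OPar
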